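import Cfsg.Agent.Lib.Twisted.CoxeterOrder
import Cfsg.Prelude.Def_ChevStructure

/-! Certificate for the Coxeter group of type B2 (generated; checked by the kernel below). -/

set_option autoImplicit false

namespace CfsgLib.Twisted.Cox

def cartB2Cox : Fin 2 → Fin 2 → ℤ := fun i j =>
  (List.getD [[2, -1], [-2, 2]] i.val []).getD j.val 0

def levelB2_0 : Level where
  width := 0
  parent := [(0, 0)]
  act := [[1], [0]]
  deds := []
  orbit := [[1, 0], [-1, 2]]

theorem levelB2_0_ok : checkLevel (CoxeterMatrix.B 2) cartB2Cox levelB2_0 = true := by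
  decide +kernel

def levelB2_1 : Level where
  width := 1
  parent := [(0, 1), (1, 0), (2, 1)]
  act := [[0, 1], [2, 0], [1, 3], [3, 2]]
  deds := [(3, 0, 1)]
  orbit := [[0, 1], [1, -1], [-1, 1], [0, -1]]

theorem levelB2_1_ok : checkLevel (CoxeterMatrix.B 2) cartB2Cox levelB2_1 = true := by
  decide +kernel

theorem relB2Cox : checkRel (CoxeterMatrix.B 2) cartB2Cox = true := by
  decide +kernel

theorem towerB2 : Tower (CoxeterMatrix.B 2) cartB2Cox [levelB2_0, levelB2_1] where
  rel := relB2Cox
  levels := by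
    intro L hL
    simp only [List.mem_cons, List.not_mem_nil, or_false] at hL
    rcases hL with rfl | rfl
    exacts [levelB2_0_ok, levelB2_1_ok]
  widths := by decide +kernel

theorem cardB2Cox : Nat.card (CoxeterMatrix.B 2).Group = 8 := by
  rw [towerB2.spec.1]
  decide +kernel

def trajB2 : List (List (List ℤ)) :=
  [[[1, 0], [-1, 2], [-1, 0], [1, -2], [1, 0]],
   [[0, 1], [-1, 1], [0, -1], [1, -1], [0, 1]]]

theorem trajB2_ok : checkCoxElt cartB2Cox 4 trajB2 = true := by
  decide +kernel

theorem orderOfB2Cox : orderOf ((List.finRange 2).map ((CoxeterMatrix.B 2) : CoxeterMatrix (Fin 2)).simple).prod = 4 :=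
  towerB2.orderOf_coxElt trajB2_ok

end CfsgLib.Twisted.Cox
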