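import Cfsg.Agent.Lib.Twisted.ReeDouble
import Cfsg.Agent.Lib.PGroups.QuadPairSL

/-! A four-group in ²G₂(q), and the absence of `SL(2,3)` sections. -/

set_option autoImplicit false

namespace CfsgLib.Twisted

open Cfsg.Lie
open CfsgLib.Chevalley (Acts Full ngR smp nW wPerm xG)

theorem g2_longest_perm : ∃ l : List (Fin chevG2.rank), wPerm fullG2.cert l * wPerm fullG2.cert l = 1 ∧
    ∀ r, wPerm fullG2.cert l r = ngR fullG2.cert r := by
  have h : (decide (∀ r, (wPerm fullG2.cert ([0, 1, 0, 1, 0, 1] : List (Fin 2)) *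
      wPerm fullG2.cert ([0, 1, 0, 1, 0, 1] : List (Fin 2))) r = r) &&
      decide (∀ r, wPerm fullG2.cert ([0, 1, 0, 1, 0, 1] : List (Fin 2)) r = ngR fullG2.cert r)) = true := by
    decide +kernel
  simp only [Bool.and_eq_true, decide_eq_true_eq] at h
  exact ⟨_, Equiv.ext h.1, h.2⟩

variable {F : Type*} [Field F]

/-- A monomial element reversing all positive roots of G₂ is an involution. -/
theorem sq_eq_one_of_neg {g : GL chevG2.Idx F} (hg : g ∈ chevG2.monomialSubgroup F)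
    {σ : Equiv.Perm (Fin chevG2.nroots)} {η : Fin chevG2.nroots → F} (hA : Acts fullG2.cert g σ η)
    (hneg : ∀ r : Fin chevG2.nroots, chevG2.IsPosRoot r → chevG2.IsNegRoot (σ r)) : g * g = 1 := by
  obtain ⟨l, hl2, hl⟩ := g2_longest_perm
  obtain ⟨θ, hθ⟩ := CfsgLib.Chevalley.acts_nW (F := F) fullG2 l
  have hd := CfsgLib.Chevalley.mem_diagonal_of_perm fullG2
    (mul_mem (CfsgLib.Chevalley.nW_mem_monomial fullG2 l) hg) (hθ.mul hA) (fun i => by
      rw [Equiv.Perm.mul_apply, hl]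
      exact fullG2.neg_isPos (hneg _ (fullG2.simple_pos i.isLt)))
  rw [CfsgLib.Chevalley.diagonalSubgroup_eq_range fullG2] at hd
  obtain ⟨c, hc⟩ := hd
  have hσ : σ = wPerm fullG2.cert l := by
    have h1 : wPerm fullG2.cert l * σ = 1 :=
      ((hθ.mul hA).perm_eq (hc ▸ CfsgLib.Chevalley.acts_torus fullG2.cert c))
    exact mul_left_cancel (h1.trans hl2.symm)
  have hσ2 : σ * σ = 1 := by rw [hσ]; exact hl2
  have hgg := hA.mul hA
  have hd2 := CfsgLib.Chevalley.mem_diagonal_of_perm fullG2 (mul_mem hg hg) hgg (fun i => by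
    rw [hσ2]; exact fullG2.simple_pos i.isLt)
  rw [CfsgLib.Chevalley.diagonalSubgroup_eq_range fullG2] at hd2
  obtain ⟨d, hd2⟩ := hd2
  rw [← hd2]
  refine Units.ext ?_
  rw [CfsgLib.Chevalley.coe_torusHom, Units.val_one, ← Matrix.diagonal_one]
  congr 1
  funext a
  rcases a with j | s
  · rfl
  have h1 := hgg.col (Sum.inr s) s
  rw [← hd2, CfsgLib.Chevalley.coe_torusHom, Matrix.diagonal_apply_eq, hσ2, Equiv.Perm.one_apply,
    if_pos rfl] at h1
  simp only [Sum.elim_inr] at h1 ⊢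
  rw [h1, hσ, hl, mul_comm]
  exact hA.inv s

variable {K : Type*} [Field K] [Fintype K] {m : ℕ} (hK : Fintype.card K = 3 ^ (2 * m + 1))
include hK

/-- Two distinct commuting involutions of ²G₂(q). -/
theorem exists_two_involutions_ree : ∃ s t : ↥(twistedG2 K (3 ^ m)),
    s * s = 1 ∧ t * t = 1 ∧ s ≠ 1 ∧ t ≠ 1 ∧ s ≠ t ∧ s * t = t * s := by
  have hcp : CharP K 3 := charP_ree hK
  obtain ⟨s, hS⟩ := exists_isRankOne_ree hK
  have hsi : s⁻¹ ∈ chevG2.monomialSubgroup K := inv_mem hS.monomial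
  obtain ⟨σ, η, hA⟩ := CfsgLib.Chevalley.exists_acts fullG2 hsi
  have hneg : ∀ r : Fin chevG2.nroots, chevG2.IsPosRoot r → chevG2.IsNegRoot (σ r) := by
    intro r hr
    refine (fullG2.pos.pos_or_neg (σ r).isLt).resolve_left fun hp => ?_
    have h1 := hS.conj_neg (xG fullG2.cert r (1 : K)) (CfsgLib.Chevalley.xG_mem_rootsU fullG2.cert hr _)
    have e := hA.conj r (1 : K)
    rw [inv_inv] at e
    rw [e] at h1
    have h2 : xG fullG2.cert (σ r) (η r * 1) ∈
        chevG2.borelSubgroup K ⊓ chevG2.negUnipotent K :=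
      ⟨Subgroup.mem_sup_left (CfsgLib.Chevalley.xG_mem_rootsU fullG2.cert hp _), h1⟩
    rw [CfsgLib.Chevalley.borel_inf_negUnipotent fullG2, Subgroup.mem_bot,
      ← CfsgLib.Chevalley.xG_zero fullG2.cert (σ r : ℕ)] at h2
    have h3 := CfsgLib.Chevalley.xG_injective fullG2.cert (σ r).isLt h2
    rw [mul_one] at h3
    exact hA.ne_zero r h3
  have hs2' : s⁻¹ * s⁻¹ = 1 := sq_eq_one_of_neg hsi hA hneg
  have hs2 : s * s = 1 := by rw [← inv_inj, mul_inv_rev, hs2', inv_one]
  have hs1 : s ≠ 1 := fun e => hS.notMem (e ▸ one_mem _)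
  -- the involution of the torus
  have h2 : (-1 : K) ≠ 1 := fun e => Ring.neg_one_ne_one_of_char_ne_two (by rw [ringChar.eq K 3]; norm_num) e
  obtain ⟨g, hg⟩ := reeTorusVal_surj hK (neg_ne_zero.2 (one_ne_zero (α := K)))
  have hgg : g * g = 1 := reeTorusVal_injective hK (by rw [map_mul, hg, map_one]; ring)
  have hg1 : g ≠ 1 := fun e => h2 (by rw [← hg, e, map_one])
  have huniq : ∀ x : ↥(chevG2.diagonalSubgroup K ⊓ twistedG2 K (3 ^ m)), x * x = 1 → x ≠ 1 → x = g := by
    intro x hx hx1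
    refine reeTorusVal_injective hK ?_
    have h : reeTorusVal x * reeTorusVal x = 1 := by rw [← map_mul, hx, map_one]
    rcases mul_self_eq_one_iff.1 h with h | h
    · exact absurd (reeTorusVal_injective hK (h.trans (map_one _).symm)) hx1
    · rw [h, hg]
  set t : GL chevG2.Idx K := (g : GL chevG2.Idx K) with ht
  have hconj : s * t * s⁻¹ = t := by
    have hm : s * t * s⁻¹ ∈ chevG2.diagonalSubgroup K ⊓ twistedG2 K (3 ^ m) :=
      ⟨CfsgLib.Chevalley.monomial_conj_diagonal fullG2 hS.monomial g.2.1,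
        Subgroup.mul_mem _ (Subgroup.mul_mem _ hS.mem g.2.2) (Subgroup.inv_mem _ hS.mem)⟩
    have htt : t * t = 1 := congrArg Subtype.val hgg
    have := huniq ⟨_, hm⟩ (Subtype.ext (by
      show s * t * s⁻¹ * (s * t * s⁻¹) = 1
      rw [show s * t * s⁻¹ * (s * t * s⁻¹) = s * (t * t) * s⁻¹ by group, htt, mul_one, mul_inv_cancel]))
      (fun e => hg1 (Subtype.ext (conj_eq_one_iff.1 (congrArg Subtype.val e))))
    exact congrArg Subtype.val this
  refine ⟨⟨s, hS.mem⟩, ⟨t, g.2.2⟩, Subtype.ext hs2, Subtype.ext (congrArg Subtype.val hgg :),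
    fun e => hs1 (congrArg Subtype.val e), fun e => hg1 (Subtype.ext (congrArg Subtype.val e :)),
    fun e => hS.notMem ?_, Subtype.ext ?_⟩
  · rw [show s = t from congrArg Subtype.val e]
    exact Subgroup.mem_sup_right g.2.1
  · show s * t = t * s
    exact mul_inv_eq_iff_eq_mul.1 hconj

theorem factorization_two_ree : (Nat.card ↥(twistedG2 K (3 ^ m))).factorization 2 = 3 := by
  rw [card_ree hK]
  set q := 3 ^ (2 * m + 1) with hq
  have h8 : q % 8 = 3 := by
    rw [hq, pow_succ, pow_mul, Nat.mul_mod, Nat.pow_mod]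
    norm_num
  have h3 : q ^ 3 % 8 = 3 := by rw [Nat.pow_mod, h8]
  obtain ⟨a, ha, haodd⟩ : ∃ a, q - 1 = 2 * a ∧ ¬ 2 ∣ a := ⟨(q - 1) / 2, by omega, by omega⟩
  obtain ⟨b, hb, hbodd⟩ : ∃ b, q ^ 3 + 1 = 2 ^ 2 * b ∧ ¬ 2 ∣ b := ⟨(q ^ 3 + 1) / 4, by omega, by omega⟩
  obtain ⟨c, hc, hcodd⟩ : ∃ c, q ^ 3 = c ∧ ¬ 2 ∣ c := ⟨q ^ 3, rfl, by omega⟩
  rw [ha, hb, hc, show c * (2 * a) * (2 ^ 2 * b) = 2 ^ 3 * (c * a * b) by ring]
  have hodd : ¬ 2 ∣ c * a * b := by
    rw [Nat.prime_two.dvd_mul, Nat.prime_two.dvd_mul]; tauto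
  rw [Nat.factorization_mul (by norm_num) (fun e => hodd (by rw [e]; exact dvd_zero 2)), Finsupp.add_apply,
    Nat.Prime.factorization_pow Nat.prime_two, Finsupp.single_eq_same,
    Nat.factorization_eq_zero_of_not_dvd hodd]

omit hK in
/-- A group whose Sylow 2-subgroups have order at most 8 and which has two commuting involutions
involves no `SL(2,3)`. -/
theorem slFree_three_of_four_group {G : Type*} [Group G] [Finite G]
    (h8 : (Nat.card G).factorization 2 ≤ 3) {s t : G} (hs : s * s = 1) (ht : t * t = 1)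
    (hs1 : s ≠ 1) (ht1 : t ≠ 1) (hst : s ≠ t) (hc : s * t = t * s) : PGroups.SLFree 3 G := by
  classical
  intro H f hf
  have : Fact (Nat.Prime 2) := ⟨Nat.prime_two⟩
  have : Fact (Nat.Prime 3) := ⟨Nat.prime_three⟩
  obtain ⟨T⟩ := (Sylow.nonempty : Nonempty (Sylow 2 H))
  set T' := T.mapSurjective hf
  have hSL : Nat.card (Matrix.SpecialLinearGroup (Fin 2) (ZMod 3)) = 2 ^ 3 * 3 := by
    rw [Nat.card_eq_fintype_card]; decide
  have hT' : Nat.card T' = 8 := by
    rw [T'.card_eq_multiplicity, hSL, Nat.factorization_mul (by norm_num) (by norm_num), Finsupp.add_apply,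
      Nat.Prime.factorization_pow Nat.prime_two, Finsupp.single_eq_same,
      Nat.factorization_eq_zero_of_not_dvd (by norm_num : ¬ 2 ∣ 3)]
    norm_num
  obtain ⟨S, hS⟩ := (T.2.map H.subtype).exists_le_sylow
  have hScard : Nat.card S ≤ 8 := by
    rw [S.card_eq_multiplicity]
    exact (Nat.pow_le_pow_right two_pos h8).trans (by norm_num)
  have hT8 : Nat.card T ≤ 8 := by
    rw [← Subgroup.card_map_of_injective H.subtype_injective]
    exact (Subgroup.card_le_of_le hS).trans hScard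
  -- `f` is injective on `T`
  let φ : ↥(T : Subgroup H) → ↥(T' : Subgroup (Matrix.SpecialLinearGroup (Fin 2) (ZMod 3))) :=
    fun x => ⟨f x, x, x.2, rfl⟩
  have hφs : Function.Surjective φ := by
    rintro ⟨_, x, hx, rfl⟩
    exact ⟨⟨x, hx⟩, rfl⟩
  have hTeq : Nat.card T = 8 := le_antisymm hT8 (hT' ▸ Nat.card_le_card_of_surjective φ hφs)
  have hφ : Function.Injective φ := by
    haveI := Fintype.ofFinite (T : Subgroup H)
    haveI := Fintype.ofFinite (T' : Subgroup (Matrix.SpecialLinearGroup (Fin 2) (ZMod 3)))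
    exact ((Fintype.bijective_iff_surjective_and_card φ).2 ⟨hφs, by
      rw [← Nat.card_eq_fintype_card, ← Nat.card_eq_fintype_card]; exact hTeq.trans hT'.symm⟩).1
  have hTS : (T : Subgroup H).map H.subtype = (S : Subgroup G) :=
    Subgroup.eq_of_le_of_card_ge hS (by
      rw [Subgroup.card_map_of_injective H.subtype_injective]; exact hScard.trans hTeq.ge)
  -- the four-group inside a conjugate of `S`
  have hV : IsPGroup 2 (Subgroup.closure ({s, t} : Set G)) := by
    have hle : Subgroup.closure ({s, t} : Set G) ≤ Subgroup.centralizer ({s, t} : Set G) := by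
      rw [Subgroup.closure_le]
      rintro x (rfl | rfl) y (rfl | rfl)
      exacts [rfl, hc.symm, hc, rfl]
    intro x
    refine ⟨1, Subtype.ext ?_⟩
    rw [Subgroup.coe_pow]
    obtain ⟨x, hx⟩ := x
    show x ^ 2 ^ 1 = 1
    rw [pow_one, pow_two]
    induction hx using Subgroup.closure_induction with
    | mem x hx => rcases hx with rfl | rfl <;> assumption
    | one => exact one_mul 1
    | mul a b ha hb iha ihb =>
      have hab : Commute a b := by
        have := Subgroup.closure_le_centralizer_centralizer _ hb a (hle ha)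
        exact this
      rw [hab.symm.mul_mul_mul_comm, iha, ihb, one_mul]
    | inv a _ iha => rw [← mul_inv_rev, iha, inv_one]
  obtain ⟨S', hS'⟩ := hV.exists_le_sylow
  obtain ⟨g, hg⟩ := MulAction.exists_smul_eq G S' S
  have hmem : ∀ x ∈ Subgroup.closure ({s, t} : Set G), g * x * g⁻¹ ∈ (T : Subgroup H).map H.subtype := by
    intro x hx
    rw [hTS, ← hg]
    exact ⟨x, hS' hx, rfl⟩
  obtain ⟨a, ha, hea⟩ := hmem s (Subgroup.subset_closure (Or.inl rfl))
  obtain ⟨b, hb, heb⟩ := hmem t (Subgroup.subset_closure (Or.inr rfl))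
  have key : ∀ (a : H) (ha : a ∈ (T : Subgroup H)) (x : G), x * x = 1 → x ≠ 1 →
      H.subtype a = g * x * g⁻¹ → f a * f a = 1 ∧ f a ≠ 1 := by
    intro a ha x hx hx1 hax
    refine ⟨?_, fun e => hx1 ?_⟩
    · rw [← map_mul, show a * a = 1 from H.subtype_injective (by
        rw [map_mul, hax, map_one, show g * x * g⁻¹ * (g * x * g⁻¹) = g * (x * x) * g⁻¹ by group,
          hx, mul_one, mul_inv_cancel]), map_one]
    · have := hφ (a₁ := ⟨a, ha⟩) (a₂ := 1) (Subtype.ext (by
        show f a = f ((1 : (T : Subgroup H)) : H)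
        rw [e, OneMemClass.coe_one, map_one]))
      rw [show a = 1 from congrArg Subtype.val this, map_one] at hax
      exact conj_eq_one_iff.1 hax.symm
  have huniq : ∀ u v : Matrix.SpecialLinearGroup (Fin 2) (ZMod 3),
      u * u = 1 → u ≠ 1 → v * v = 1 → v ≠ 1 → u = v := by decide
  obtain ⟨ha2, ha1⟩ := key a ha s hs hs1 hea
  obtain ⟨hb2, hb1⟩ := key b hb t ht ht1 heb
  have := hφ (a₁ := ⟨a, ha⟩) (a₂ := ⟨b, hb⟩) (Subtype.ext (huniq _ _ ha2 ha1 hb2 hb1))
  have hab : a = b := congrArg Subtype.val this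
  rw [hab, heb] at hea
  exact hst (mul_left_cancel (mul_right_cancel hea)).symm

/-- ²G₂(q) involves no `SL(2,3)`. -/
theorem slFree_three_ree : PGroups.SLFree 3 ↥(twistedG2 K (3 ^ m)) := by
  obtain ⟨s, t, hs, ht, hs1, ht1, hst, hc⟩ := exists_two_involutions_ree hK
  exact slFree_three_of_four_group (factorization_two_ree hK).le hs ht hs1 ht1 hst hc

end CfsgLib.Twisted
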